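import Cfsg.Prelude.Def_TwoFusion
import Cfsg.Agent.TwoModels.Transfer
import Cfsg.Agent.TwoModels.QDFusion
import Cfsg.Agent.TwoModels.Recog
import Cfsg.Agent.Transfer.Basic
import Mathlib.GroupTheory.SpecificGroups.Dihedral
import Mathlib.GroupTheory.SpecificGroups.Cyclic

/-! Fusion in groups with dihedral Sylow 2-subgroups. -/

set_option autoImplicit false

namespace Cfsg.Agent.TwoModels

open Subgroup

variable {G : Type*} [Group G]

/-- Coordinates in a dihedral Sylow 2-subgroup of order `4h`. -/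
structure IsDih (S : Sylow 2 G) (h : ℕ) (X Y : G) : Prop where
  hpos : 0 < h
  hev : h = 1 ∨ 2 ∣ h
  hX : orderOf X = 2 * h
  hY : orderOf Y = 2
  rel : Y * X * Y⁻¹ = X⁻¹
  nmem : Y ∉ zpowers X
  XS : X ∈ (S : Subgroup G)
  YS : Y ∈ (S : Subgroup G)
  cases : ∀ g ∈ (S : Subgroup G), ∃ i : ℤ, g = X ^ i ∨ g = X ^ i * Y

namespace IsDih

variable {S : Sylow 2 G} {h : ℕ} {X Y : G}

theorem exists_coord [Finite G] (S : Sylow 2 G) (m : ℕ) (hm : 2 ≤ m)
    (eS : ↥(S : Subgroup G) ≃* DihedralGroup m) :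
    ∃ (h : ℕ) (X Y : G), m = 2 * h ∧ Nat.card ↥(S : Subgroup G) = 4 * h ∧ IsDih S h X Y := by
  haveI : Fact (Nat.Prime 2) := ⟨Nat.prime_two⟩
  haveI : NeZero m := ⟨by omega⟩
  obtain ⟨a, ha⟩ := IsPGroup.iff_card.1 S.isPGroup'
  have hc : Nat.card ↥(S : Subgroup G) = 2 * m := by rw [Nat.card_congr eS.toEquiv, DihedralGroup.nat_card]
  obtain ⟨b, rfl⟩ : ∃ b, a = b + 2 := by
    refine ⟨a - 2, ?_⟩
    have : 2 ^ 2 ≤ 2 ^ a := by rw [← ha, hc]; omega
    have := (Nat.pow_le_pow_iff_right (by norm_num : 1 < 2)).1 this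
    omega
  obtain rfl : m = 2 * 2 ^ b := by rw [ha, pow_succ, pow_succ] at hc; omega
  refine ⟨2 ^ b, (eS.symm (.r 1) : G), (eS.symm (.sr 0) : G), rfl, by rw [hc]; ring, by positivity, ?_, ?_, ?_, ?_, ?_,
    SetLike.coe_mem _, SetLike.coe_mem _, fun g hg => ?_⟩
  · rcases b with _ | b
    · exact Or.inl rfl
    · exact Or.inr (dvd_pow_self 2 (by omega))
  · rw [orderOf_coe, MulEquiv.orderOf_eq, DihedralGroup.orderOf_r_one]
  · rw [orderOf_coe, MulEquiv.orderOf_eq, DihedralGroup.orderOf_sr]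
  · rw [← coe_inv, ← coe_inv, ← coe_mul, ← coe_mul, ← map_inv, ← map_inv, ← map_mul, ← map_mul]
    simp
  · rintro ⟨i, hi⟩
    have h1 : eS.symm (.r 1) ^ i = eS.symm (.sr 0) := Subtype.ext (by rw [coe_zpow]; exact hi)
    rw [← map_zpow, eS.symm.injective.eq_iff, DihedralGroup.r_one_zpow] at h1
    cases h1
  · rcases e : eS ⟨g, hg⟩ with j | j
    · obtain ⟨i, rfl⟩ := ZMod.intCast_surjective j
      refine ⟨i, Or.inl ?_⟩
      rw [← coe_zpow, ← map_zpow, DihedralGroup.r_one_zpow, ← e, eS.symm_apply_apply]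
    · obtain ⟨i, rfl⟩ := ZMod.intCast_surjective j
      refine ⟨-i, Or.inr ?_⟩
      rw [← coe_zpow, ← coe_mul, ← map_zpow, ← map_mul, DihedralGroup.r_one_zpow, DihedralGroup.r_mul_sr,
        show (0 : ZMod (2 * 2 ^ b)) - ((-i : ℤ) : ZMod (2 * 2 ^ b)) = i by simp, ← e, eS.symm_apply_apply]

theorem yy (d : IsDih S h X Y) : Y * Y = 1 := by rw [← sq, ← d.hY, pow_orderOf_eq_one]

theorem y_pow (d : IsDih S h X Y) (i : ℤ) : Y * X ^ i = X ^ (-i) * Y := by
  rw [← conj_zpow_inv d.rel i, inv_mul_cancel_right]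

theorem zpow_eq_iff (d : IsDih S h X Y) {a b : ℤ} : X ^ a = X ^ b ↔ (2 * (h : ℤ)) ∣ b - a := by
  rw [eq_comm, ← mul_inv_eq_one, ← zpow_neg, ← zpow_add, ← sub_eq_add_neg, ← orderOf_dvd_iff_zpow_eq_one, d.hX]
  push_cast; rfl

theorem zpow_one_iff (d : IsDih S h X Y) {a : ℤ} : X ^ a = 1 ↔ (2 * (h : ℤ)) ∣ a := by
  rw [← orderOf_dvd_iff_zpow_eq_one, d.hX]; push_cast; rfl

theorem refl_not_mem (d : IsDih S h X Y) (i : ℤ) : X ^ i * Y ∉ zpowers X := fun hh =>
  d.nmem ((mul_mem_cancel_left (zpow_mem_zpowers X i)).1 hh)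

theorem refl_mul (d : IsDih S h X Y) (i j : ℤ) : X ^ i * Y * (X ^ j * Y) = X ^ (i - j) := by
  rw [mul_assoc, ← mul_assoc Y, d.y_pow, mul_assoc, d.yy, mul_one, ← zpow_add, ← sub_eq_add_neg]

theorem conj_refl (d : IsDih S h X Y) (j i : ℤ) :
    X ^ j * (X ^ i * Y) * (X ^ j)⁻¹ = X ^ (i + 2 * j) * Y := by
  rw [← zpow_neg, mul_assoc (X ^ j), mul_assoc (X ^ i), d.y_pow, neg_neg, ← mul_assoc, ← mul_assoc, ← zpow_add,
    ← zpow_add, show j + i + j = i + 2 * j by ring]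

theorem refl_order (d : IsDih S h X Y) (i : ℤ) : orderOf (X ^ i * Y) = 2 :=
  orderOf_eq_prime (by rw [sq, d.refl_mul, sub_self, zpow_zero])
    fun e => d.refl_not_mem i (by rw [e]; exact one_mem _)

theorem c_ne (d : IsDih S h X Y) : X ^ (h : ℤ) ≠ 1 := fun e => by
  have := Int.le_of_dvd (by exact_mod_cast d.hpos) (d.zpow_one_iff.1 e)
  have := d.hpos
  omega

theorem c_sq (d : IsDih S h X Y) : X ^ (h : ℤ) * X ^ (h : ℤ) = 1 := by
  rw [← zpow_add, d.zpow_one_iff]; exact ⟨1, by ring⟩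

theorem c_inv (d : IsDih S h X Y) : (X ^ (h : ℤ))⁻¹ = X ^ (h : ℤ) := inv_eq_of_mul_eq_one_right d.c_sq

theorem c_order (d : IsDih S h X Y) : orderOf (X ^ (h : ℤ)) = 2 := orderOf_eq_prime (by rw [sq, d.c_sq]) d.c_ne

theorem c_comm (d : IsDih S h X Y) {g : G} (hg : g ∈ (S : Subgroup G)) :
    X ^ (h : ℤ) * g = g * X ^ (h : ℤ) := by
  obtain ⟨i, rfl | rfl⟩ := d.cases g hg
  · exact zpow_mul_comm X _ _
  · rw [mul_assoc, d.y_pow, zpow_neg, d.c_inv, ← mul_assoc, ← mul_assoc, zpow_mul_comm]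

theorem c_mul_refl (d : IsDih S h X Y) (i : ℤ) : X ^ (h : ℤ) * (X ^ i * Y) = X ^ (i + h) * Y := by
  rw [← mul_assoc, ← zpow_add, add_comm]

theorem refl_mem (d : IsDih S h X Y) (i : ℤ) : X ^ i * Y ∈ (S : Subgroup G) := mul_mem (zpow_mem d.XS i) d.YS

theorem invol_cases (d : IsDih S h X Y) {g : G} (hg : g ∈ (S : Subgroup G)) (hg2 : g * g = 1) (h1 : g ≠ 1) :
    g = X ^ (h : ℤ) ∨ ∃ i : ℤ, g = X ^ i * Y := by
  obtain ⟨i, rfl | rfl⟩ := d.cases g hg
  · left
    rw [← zpow_add, d.zpow_one_iff] at hg2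
    obtain ⟨t, ht⟩ := hg2
    rw [d.zpow_eq_iff]
    rcases Int.even_or_odd' t with ⟨w, rfl | rfl⟩
    · exact absurd (d.zpow_one_iff.2 ⟨w, by linarith⟩) h1
    · exact ⟨-w, by linarith⟩
  · exact Or.inr ⟨i, rfl⟩

/-- The four-subgroup containing the reflection with parameter `i`. -/
def four (h : ℕ) (X Y : G) (i : ℤ) : Subgroup G := zpowers (X ^ (h : ℤ)) ⊔ zpowers (X ^ i * Y)

theorem c_mem_four (i : ℤ) : X ^ (h : ℤ) ∈ four h X Y i := mem_sup_left (mem_zpowers _)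

theorem refl_mem_four (i : ℤ) : X ^ i * Y ∈ four h X Y i := mem_sup_right (mem_zpowers _)

theorem four_le (d : IsDih S h X Y) (i : ℤ) : four h X Y i ≤ (S : Subgroup G) :=
  sup_le (zpowers_le.2 (zpow_mem d.XS _)) (zpowers_le.2 (d.refl_mem i))

theorem four_klein (d : IsDih S h X Y) (i : ℤ) : IsKleinFour ↥(four h X Y i) := by
  obtain ⟨e⟩ := dihedral_recog d.c_order (d.refl_order i)
    (by rw [d.c_inv, ← d.c_comm (d.refl_mem i), mul_inv_cancel_right])
    (fun hh => d.refl_not_mem i (zpowers_le.2 (zpow_mem_zpowers X _) hh))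
  unfold four
  exact ⟨by rw [Nat.card_congr e.toEquiv, IsKleinFour.card_four],
    by rw [Monoid.exponent_eq_of_mulEquiv e, IsKleinFour.exponent_two]⟩

theorem mem_four (d : IsDih S h X Y) (i : ℤ) {t : G} (ht : t ∈ four h X Y i) :
    t = 1 ∨ t = X ^ (h : ℤ) ∨ t = X ^ i * Y ∨ t = X ^ (i + h) * Y := by
  have hle : zpowers (X ^ i * Y) ≤ centralizer (zpowers (X ^ (h : ℤ)) : Set G) :=
    zpowers_le.2 (mem_centralizer_iff.2 fun w hw => by
      obtain ⟨j, rfl⟩ := hw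
      exact ((show Commute (X ^ (h : ℤ)) (X ^ i * Y) from d.c_comm (d.refl_mem i)).zpow_left j).eq)
  rw [four, ← SetLike.mem_coe, coe_mul_of_right_le_normalizer_left _ _ (hle.trans (centralizer_le_normalizer _))] at ht
  obtain ⟨u, ⟨p, rfl⟩, v, ⟨q, rfl⟩, rfl⟩ := ht
  have two : ∀ {w : G}, w * w = 1 → ∀ p : ℤ, w ^ p = 1 ∨ w ^ p = w := fun {w} hw p => by
    rcases Int.even_or_odd' p with ⟨r, rfl | rfl⟩
    · exact Or.inl (by rw [zpow_mul, zpow_two, hw, one_zpow])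
    · exact Or.inr (by rw [zpow_add_one, zpow_mul, zpow_two, hw, one_zpow, one_mul])
  show (X ^ (h : ℤ)) ^ p * (X ^ i * Y) ^ q = 1 ∨ _
  rcases two d.c_sq p with e | e <;>
    rcases two (by rw [d.refl_mul, sub_self, zpow_zero] : X ^ i * Y * (X ^ i * Y) = 1) q with e' | e' <;>
    simp only [e, e', one_mul, mul_one, d.c_mul_refl, true_or, or_true]

theorem four_shape (d : IsDih S h X Y) [Finite G] {V : Subgroup G} (hV : IsKleinFour ↥V)
    (hVS : V ≤ (S : Subgroup G)) : ∃ i : ℤ, V = four h X Y i := by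
  have hsq : ∀ v ∈ V, v * v = 1 := fun v hv => congrArg Subtype.val (IsKleinFour.mul_self (⟨v, hv⟩ : ↥V))
  obtain ⟨i, hi⟩ : ∃ i : ℤ, X ^ i * Y ∈ V := by
    by_contra hne
    push Not at hne
    have : V ≤ zpowers (X ^ (h : ℤ)) := fun v hv => by
      by_cases h1 : v = 1
      · rw [h1]; exact one_mem _
      rcases d.invol_cases (hVS hv) (hsq v hv) h1 with e | ⟨i, e⟩
      · rw [e]; exact mem_zpowers _
      · exact absurd (e ▸ hv) (hne i)
    have h2 := card_le_of_le this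
    rw [Nat.card_zpowers, d.c_order, hV.card_four] at h2
    omega
  refine ⟨i, (eq_of_le_of_card_ge (fun v hv => ?_) (by rw [(d.four_klein i).card_four, hV.card_four]))⟩
  have hc : v * (X ^ i * Y) = X ^ i * Y * v := congrArg Subtype.val
    ((IsKleinFour.isMulCommutative (G := ↥V)).is_comm.comm ⟨v, hv⟩ ⟨_, hi⟩)
  obtain ⟨j, rfl | rfl⟩ := d.cases v (hVS hv)
  · have hj := hsq _ hv
    rw [← zpow_add, d.zpow_one_iff] at hj
    obtain ⟨t, ht⟩ := hj
    rw [show j = (h : ℤ) * t by linarith, zpow_mul]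
    exact zpow_mem (c_mem_four i) t
  · rw [d.refl_mul, d.refl_mul, d.zpow_eq_iff] at hc
    obtain ⟨t, ht⟩ := hc
    rw [show j = -((h : ℤ) * t) + i by linarith, zpow_add, mul_assoc]
    exact mul_mem (by rw [zpow_neg, zpow_mul]; exact inv_mem (zpow_mem (c_mem_four i) t)) (refl_mem_four i)

theorem refl_ne_c (d : IsDih S h X Y) (i : ℤ) : X ^ i * Y ≠ X ^ (h : ℤ) := fun e =>
  d.refl_not_mem i (e ▸ zpow_mem_zpowers X _)

theorem refl_ne_refl (d : IsDih S h X Y) (i : ℤ) : X ^ i * Y ≠ X ^ (i + h) * Y := fun e => by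
  rw [← d.c_mul_refl] at e
  exact d.c_ne (mul_eq_right.1 e.symm)

theorem perm (d : IsDih S h X Y) (i : ℤ) {n v : G} (hn : n ∈ normalizer (four h X Y i : Set G))
    (hv : v ∈ four h X Y i) (hv1 : v ≠ 1) :
    n * v * n⁻¹ = X ^ (h : ℤ) ∨ n * v * n⁻¹ = X ^ i * Y ∨ n * v * n⁻¹ = X ^ (i + h) * Y := by
  rcases d.mem_four i (normalizer_conj hn hv) with e | e
  · exact absurd (conj_eq_one_iff.1 e) hv1
  · exact e

theorem refl'_mem_four (d : IsDih S h X Y) (i : ℤ) : X ^ (i + h) * Y ∈ four h X Y i :=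
  d.c_mul_refl i ▸ mul_mem (c_mem_four i) (refl_mem_four i)

/-- If the automizer of a four-subgroup has more than two elements, its involutions are fused. -/
theorem fused (d : IsDih S h X Y) [Finite G] (i : ℤ)
    (hbig : 2 < (centralizer (four h X Y i : Set G)).relIndex (normalizer (four h X Y i : Set G))) :
    IsConj (X ^ i * Y) (X ^ (h : ℤ)) := by
  set N := normalizer (four h X Y i : Set G)
  set C := centralizer (four h X Y i : Set G)
  set a := X ^ (h : ℤ)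
  set b := X ^ i * Y
  set c := X ^ (i + h) * Y
  have hab : b ≠ a := d.refl_ne_c i
  have hac : c ≠ a := d.refl_ne_c _
  have hbc : b ≠ c := d.refl_ne_refl i
  have one : ∀ {v : G}, orderOf v = 2 → v ≠ 1 := fun hv e => by rw [e, orderOf_one] at hv; omega
  have hperm : ∀ n ∈ N, ∀ v, v = a ∨ v = b ∨ v = c → n * v * n⁻¹ = a ∨ n * v * n⁻¹ = b ∨ n * v * n⁻¹ = c := by
    intro n hn v hv
    rcases hv with rfl | rfl | rfl
    · exact d.perm i hn (c_mem_four i) (one d.c_order)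
    · exact d.perm i hn (refl_mem_four i) (one (d.refl_order i))
    · exact d.perm i hn (d.refl'_mem_four i) (one (d.refl_order _))
  have inj : ∀ {n v w : G}, n * v * n⁻¹ = n * w * n⁻¹ → v = w := fun e => mul_left_cancel (mul_right_cancel e)
  -- no point of the three can be fixed by the whole normalizer
  have hab' : ∀ n ∈ N, n * a * n⁻¹ = a → n * b * n⁻¹ = b → n * c * n⁻¹ = c := by
    intro n hn e1 e2
    rcases hperm n hn c (Or.inr (Or.inr rfl)) with e | e | e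
    · exact absurd (inj (e.trans e1.symm)) hac
    · exact absurd (inj (e.trans e2.symm)).symm hbc
    · exact e
  have hswap : ∀ v p q : G, v ≠ p → v ≠ q → p ≠ q → (∀ n ∈ N, n * v * n⁻¹ = v) →
      (∀ n ∈ N, ∀ u, u = p ∨ u = q → n * u * n⁻¹ = v ∨ n * u * n⁻¹ = p ∨ n * u * n⁻¹ = q) →
      (∀ n ∈ N, n * v * n⁻¹ = v → n * p * n⁻¹ = p → n * q * n⁻¹ = q → n ∈ C) → C.relIndex N ≤ 2 := by
    intro v p q hvp hvq hpq hfix hpm hker
    have hcases : ∀ n ∈ N, (n * p * n⁻¹ = p ∧ n * q * n⁻¹ = q) ∨ (n * p * n⁻¹ = q ∧ n * q * n⁻¹ = p) := by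
      intro n hn
      have hp : n * p * n⁻¹ ≠ v := fun e => hvp (inj (e.trans (hfix n hn).symm)).symm
      have hq : n * q * n⁻¹ ≠ v := fun e => hvq (inj (e.trans (hfix n hn).symm)).symm
      rcases hpm n hn p (Or.inl rfl) with e1 | e1 | e1
      · exact absurd e1 hp
      · rcases hpm n hn q (Or.inr rfl) with e2 | e2 | e2
        · exact absurd e2 hq
        · exact absurd (inj (e1.trans e2.symm)) hpq
        · exact Or.inl ⟨e1, e2⟩
      · rcases hpm n hn q (Or.inr rfl) with e2 | e2 | e2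
        · exact absurd e2 hq
        · exact Or.inr ⟨e1, e2⟩
        · exact absurd (inj (e1.trans e2.symm)) hpq
    by_cases hall : ∀ n ∈ N, n * p * n⁻¹ = p
    · have : C.relIndex N = 1 := relIndex_eq_one.2 fun n hn => by
        rcases hcases n hn with ⟨e1, e2⟩ | ⟨e1, -⟩
        · exact hker n hn (hfix n hn) e1 e2
        · exact absurd ((hall n hn).symm.trans e1) hpq
      omega
    · push Not at hall
      obtain ⟨n₀, hn₀, hn₀p⟩ := hall
      obtain ⟨e01, e02⟩ := (hcases n₀ hn₀).resolve_left fun hh => hn₀p hh.1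
      have hs : Function.Surjective (fun t : Bool => cond t ((⟨n₀, hn₀⟩ : ↥N) : ↥N ⧸ C.subgroupOf N) ((1 : ↥N) : ↥N ⧸ C.subgroupOf N)) := by
        intro x
        induction x using QuotientGroup.induction_on with
        | H n =>
          rcases hcases n n.2 with ⟨e1, e2⟩ | ⟨e1, e2⟩
          · exact ⟨false, QuotientGroup.eq.2 (by
              simpa [mem_subgroupOf] using hker n n.2 (hfix n n.2) e1 e2)⟩
          · refine ⟨true, QuotientGroup.eq.2 (show n₀⁻¹ * (n : G) ∈ C from hker _ (mul_mem (inv_mem hn₀) n.2) (hfix _ (mul_mem (inv_mem hn₀) n.2)) ?_ ?_)⟩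
            · rw [show n₀⁻¹ * (n : G) * p * (n₀⁻¹ * (n : G))⁻¹ = n₀⁻¹ * ((n : G) * p * (n : G)⁻¹) * n₀ by group, e1,
                ← e01]
              group
            · rw [show n₀⁻¹ * (n : G) * q * (n₀⁻¹ * (n : G))⁻¹ = n₀⁻¹ * ((n : G) * q * (n : G)⁻¹) * n₀ by group, e2,
                ← e02]
              group
      have h5 := Nat.card_le_card_of_surjective _ hs
      rwa [Nat.card_eq_fintype_card (α := Bool), Fintype.card_bool] at h5
  have hker : ∀ n ∈ N, n * a * n⁻¹ = a → n * b * n⁻¹ = b → n ∈ C := by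
    intro n hn e1 e2
    refine mem_centralizer_iff.2 fun t ht => ?_
    rcases d.mem_four i ht with rfl | rfl | rfl | rfl
    · simp
    · exact (mul_inv_eq_iff_eq_mul.1 e1).symm
    · exact (mul_inv_eq_iff_eq_mul.1 e2).symm
    · exact (mul_inv_eq_iff_eq_mul.1 (hab' n hn e1 e2)).symm
  have hmove : ∀ v : G, v = a ∨ v = b → ∃ n ∈ N, n * v * n⁻¹ ≠ v := by
    intro v hv
    by_contra hne
    push Not at hne
    rcases hv with rfl | rfl
    · have := hswap a b c hab.symm hac.symm hbc hne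
        (fun n hn u hu => hperm n hn u (hu.elim (fun e => Or.inr (Or.inl e)) fun e => Or.inr (Or.inr e)))
        (fun n hn e1 e2 _ => hker n hn e1 e2)
      omega
    · have := hswap b a c hab hbc hac.symm hne
        (fun n hn u hu => (hperm n hn u (hu.elim Or.inl fun e => Or.inr (Or.inr e))).elim (fun e => Or.inr (Or.inl e))
          fun e => e.elim Or.inl fun e => Or.inr (Or.inr e))
        (fun n hn e1 e2 _ => hker n hn e2 e1)
      omega
  obtain ⟨n, hn, hna⟩ := hmove a (Or.inl rfl)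
  rcases hperm n hn a (Or.inl rfl) with e | e | e
  · exact absurd e hna
  · exact (isConj_iff.2 ⟨n, e⟩ : IsConj a b).symm
  · obtain ⟨n', hn', hnb⟩ := hmove b (Or.inr rfl)
    rcases hperm n' hn' b (Or.inr (Or.inl rfl)) with e' | e' | e'
    · exact isConj_iff.2 ⟨n', e'⟩
    · exact absurd e' hnb
    · exact (isConj_iff.2 ⟨n', e'⟩ : IsConj b c).trans (isConj_iff.2 ⟨n, e⟩ : IsConj a c).symm

/-- If the normalizer of a four-subgroup fixes the central involution, there is no fusion with it. -/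
theorem not_fused (d : IsDih S h X Y) [Finite G] (i : ℤ)
    (hfix : ∀ n ∈ normalizer (four h X Y i : Set G), n * X ^ (h : ℤ) * n⁻¹ = X ^ (h : ℤ)) :
    ¬ IsConj (X ^ i * Y) (X ^ (h : ℤ)) := by
  intro hf
  obtain ⟨g, hg⟩ := isConj_iff.1 hf
  set cc := X ^ (h : ℤ)
  set U := four h X Y i
  have hSC : (S : Subgroup G) ≤ centralizer {cc} := fun s hs =>
    mem_centralizer_iff.2 fun v hv => by rw [Set.mem_singleton_iff.1 hv]; exact d.c_comm hs
  have hUC : U.map (MulAut.conj g).toMonoidHom ≤ centralizer {cc} := by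
    rintro _ ⟨t, ht, rfl⟩
    refine mem_centralizer_iff.2 fun v hv => ?_
    rw [Set.mem_singleton_iff.1 hv]
    show cc * (g * t * g⁻¹) = g * t * g⁻¹ * cc
    haveI := d.four_klein i
    have hte : X ^ i * Y * t = t * (X ^ i * Y) := congrArg Subtype.val
      ((IsKleinFour.isMulCommutative (G := ↥U)).is_comm.comm ⟨_, refl_mem_four i⟩ ⟨t, ht⟩)
    rw [← hg]
    calc g * (X ^ i * Y) * g⁻¹ * (g * t * g⁻¹) = g * (X ^ i * Y * t) * g⁻¹ := by group
      _ = g * (t * (X ^ i * Y)) * g⁻¹ := by rw [hte]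
      _ = g * t * g⁻¹ * (g * (X ^ i * Y) * g⁻¹) := by group
  obtain ⟨u, huC, hu⟩ := conj_into S hSC ((S.isPGroup'.to_le (d.four_le i)).map _) hUC
  set m := u * g with hm
  have hme : m * (X ^ i * Y) * m⁻¹ = cc := by
    rw [hm, show u * g * (X ^ i * Y) * (u * g)⁻¹ = u * (g * (X ^ i * Y) * g⁻¹) * u⁻¹ by group, hg,
      ← mem_centralizer_iff.1 huC cc rfl, mul_inv_cancel_right]
  have hmS : U.map (MulAut.conj m).toMonoidHom ≤ (S : Subgroup G) := by
    rintro _ ⟨t, ht, rfl⟩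
    show m * t * m⁻¹ ∈ (S : Subgroup G)
    rw [hm, show u * g * t * (u * g)⁻¹ = u * (g * t * g⁻¹) * u⁻¹ by group]
    exact hu _ ⟨t, ht, rfl⟩
  have eU := U.equivMapOfInjective (MulAut.conj m).toMonoidHom (MulAut.conj m).injective
  obtain ⟨j, hj⟩ := d.four_shape (V := U.map (MulAut.conj m).toMonoidHom)
    ⟨by rw [← Nat.card_congr eU.toEquiv]; exact (d.four_klein i).card_four,
      by rw [← Monoid.exponent_eq_of_mulEquiv eU]; exact (d.four_klein i).exponent_two⟩ hmS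
  rcases d.hev with e1 | ⟨w, hw⟩
  · have hU : ∀ k : ℤ, four h X Y k = (S : Subgroup G) := fun k => by
      refine le_antisymm (d.four_le k) fun t ht => ?_
      have hX : X ∈ four h X Y k := by
        have h0 : X ^ ((1 : ℕ) : ℤ) ∈ four h X Y k := e1 ▸ (c_mem_four k : X ^ (h : ℤ) ∈ four h X Y k)
        rwa [Nat.cast_one, zpow_one] at h0
      have hY : Y ∈ four h X Y k := by
        have := mul_mem (zpow_mem hX (-k)) (refl_mem_four (h := h) (X := X) (Y := Y) k)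
        rwa [← mul_assoc, ← zpow_add, neg_add_cancel, zpow_zero, one_mul] at this
      obtain ⟨r, rfl | rfl⟩ := d.cases t ht
      · exact zpow_mem hX r
      · exact mul_mem (zpow_mem hX r) hY
    have hmN : m ∈ normalizer (U : Set G) := mem_normalizer_of fun t ht => by
      have h1 : m * t * m⁻¹ ∈ four h X Y j := hj ▸ ⟨t, ht, rfl⟩
      rw [hU j, ← hU i] at h1
      exact h1
    exact d.refl_ne_c i (mul_left_cancel (mul_right_cancel (hme.trans (hfix m hmN).symm)))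
  · set t := X ^ (w : ℤ)
    have ht : ∀ k : ℤ, t * (X ^ k * Y) * t⁻¹ = X ^ (k + h) * Y := fun k => by
      rw [d.conj_refl, show k + 2 * (w : ℤ) = k + h by rw [hw]; push_cast; ring]
    have htc : t * cc * t⁻¹ = cc := by rw [← d.c_comm (zpow_mem d.XS _), mul_inv_cancel_right]
    have htN : t ∈ normalizer (four h X Y j : Set G) := mem_normalizer_of fun s hs => by
      refine conj_sup_mem ?_ ?_ hs
      · rw [htc]; exact c_mem_four j
      · rw [ht]; exact d.refl'_mem_four j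
    have hn : m⁻¹ * t * m ∈ normalizer (U : Set G) := mem_normalizer_of fun s hs => by
      have h1 := normalizer_conj htN (hj ▸ ⟨s, hs, rfl⟩ : m * s * m⁻¹ ∈ four h X Y j)
      rw [← hj] at h1
      obtain ⟨s', hs', e'⟩ := h1
      change m * s' * m⁻¹ = _ at e'
      rw [show m⁻¹ * t * m * s * (m⁻¹ * t * m)⁻¹ = m⁻¹ * (t * (m * s * m⁻¹) * t⁻¹) * m by group, ← e',
        show m⁻¹ * (m * s' * m⁻¹) * m = s' by group]
      exact hs'
    have h2 := hfix _ hn
    have h3 : t * (m * cc * m⁻¹) * t⁻¹ = m * cc * m⁻¹ := by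
      conv_rhs => rw [← h2]
      group
    have h4 : m * cc * m⁻¹ ∈ four h X Y j := hj ▸ ⟨cc, c_mem_four i, rfl⟩
    rcases d.mem_four j h4 with e | e | e | e
    · exact d.c_ne (conj_eq_one_iff.1 e)
    · exact d.refl_ne_c i (mul_left_cancel (mul_right_cancel (hme.trans e.symm)))
    · rw [e, ht] at h3; exact d.refl_ne_refl j h3.symm
    · rw [e, ht] at h3; exact d.refl_ne_refl _ h3.symm

theorem exists_index_two_avoid (d : IsDih S h X Y) [Finite G] (i : ℤ)
    (hf : ¬ IsConj (X ^ i * Y) (X ^ (h : ℤ))) :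
    ∃ M : Subgroup G, M.Normal ∧ M.index = 2 ∧ X ^ i * Y ∉ M := by
  have hsq : (X ^ i * Y) * (X ^ i * Y) = 1 := by rw [d.refl_mul, sub_self, zpow_zero]
  refine transfer_two S (zpowers X) ?_ _ (d.refl_mem i) (by rw [show (4 : ℕ) = 2 * 2 from rfl, pow_mul, sq (X ^ i * Y), hsq, one_pow])
    (fun g hgS hgT => ?_) (fun g _ => by rw [sq, hsq]; simp)
  · refine relIndex_eq_two_of d.YS d.nmem fun b hb => ?_
    obtain ⟨r, rfl | rfl⟩ := d.cases b hb
    · exact Or.inl (zpow_mem_zpowers X r)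
    · exact Or.inr (by rw [mul_assoc, d.yy, mul_one]; exact zpow_mem_zpowers X r)
  · have h2 : g * (X ^ i * Y) * g⁻¹ * (g * (X ^ i * Y) * g⁻¹) = 1 := by
      rw [show g * (X ^ i * Y) * g⁻¹ * (g * (X ^ i * Y) * g⁻¹) = g * (X ^ i * Y * (X ^ i * Y)) * g⁻¹ by group,
        hsq, mul_one, mul_inv_cancel]
    rcases d.invol_cases hgS h2 (fun e => by
      have := d.refl_order i
      rw [conj_eq_one_iff.1 e, orderOf_one] at this; omega) with e | ⟨r, e⟩
    · exact hf (isConj_iff.2 ⟨g, e⟩)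
    · exact d.refl_not_mem r (e ▸ hgT)

theorem parity (d : IsDih S h X Y) (i : ℤ) :
    IsConj (X ^ i * Y) (X ^ (0 : ℤ) * Y) ∨ IsConj (X ^ i * Y) (X ^ (1 : ℤ) * Y) := by
  rcases Int.even_or_odd' i with ⟨w, rfl | rfl⟩
  · exact Or.inl (isConj_iff.2 ⟨X ^ (-w), by rw [d.conj_refl, show 2 * w + 2 * -w = 0 by ring]⟩)
  · exact Or.inr (isConj_iff.2 ⟨X ^ (-w), by rw [d.conj_refl, show 2 * w + 1 + 2 * -w = 1 by ring]⟩)

theorem one_class (d : IsDih S h X Y) [Finite G] (hf : ∀ i : ℤ, IsConj (X ^ i * Y) (X ^ (h : ℤ))) {a : G}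
    (ha : orderOf a = 2) : IsConj a (X ^ (h : ℤ)) := by
  haveI : Fact (Nat.Prime 2) := ⟨Nat.prime_two⟩
  have hp : IsPGroup 2 ↥(zpowers a) := IsPGroup.of_card (n := 1) (by rw [Nat.card_zpowers, ha, pow_one])
  obtain ⟨g, -, hg⟩ := conj_into (L := ⊤) S le_top hp le_top
  have hS := hg a (mem_zpowers a)
  have ha' : orderOf (g * a * g⁻¹) = 2 := by
    rw [← ha]; exact orderOf_injective (MulAut.conj g).toMonoidHom (MulAut.conj g).injective a
  refine (isConj_iff.2 ⟨g, rfl⟩ : IsConj a (g * a * g⁻¹)).trans ?_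
  rcases d.invol_cases hS (by rw [← sq, ← ha', pow_orderOf_eq_one]) (fun e => by rw [e, orderOf_one] at ha'; omega)
    with e | ⟨r, e⟩
  · rw [e]
  · rw [e]; exact hf r

theorem no_index_two_of_one_class (d : IsDih S h X Y) [Finite G]
    (hf : ∀ i : ℤ, IsConj (X ^ i * Y) (X ^ (h : ℤ))) (H : Subgroup G) : H.index ≠ 2 := fun hH => by
  haveI : Fact (Nat.Prime 2) := ⟨Nat.prime_two⟩
  haveI := normal_of_index_eq_two hH
  have iff : ∀ {u v : G}, IsConj u v → (u ∈ H ↔ v ∈ H) := fun {u v} huv => by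
    obtain ⟨g, rfl⟩ := isConj_iff.1 huv
    exact ⟨fun hu => ‹H.Normal›.conj_mem u hu g, fun hu => by
      have := ‹H.Normal›.conj_mem _ hu g⁻¹
      rwa [show g⁻¹ * (g * u * g⁻¹) * (g⁻¹)⁻¹ = u by group] at this⟩
  have hc : X ^ (h : ℤ) ∈ H := by
    rw [show X ^ (h : ℤ) = X ^ ((0 : ℤ) + h) * Y * (X ^ (0 : ℤ) * Y) by rw [d.refl_mul, sub_zero, zero_add],
      mul_mem_iff_of_index_two hH, iff (hf _), iff (hf 0)]
  have hR : ∀ i : ℤ, X ^ i * Y ∈ H := fun i => (iff (hf i)).2 hc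
  have hS : (S : Subgroup G) ≤ H := fun s hs => by
    obtain ⟨r, rfl | rfl⟩ := d.cases s hs
    · have := mul_mem (hR r) (hR 0)
      rwa [d.refl_mul, sub_zero] at this
    · exact hR r
  have := index_dvd_of_le hS
  rw [hH] at this
  exact S.not_dvd_index this

theorem hasNPC (d : IsDih S h X Y) [Finite G] (hf : ∀ i : ℤ, ¬ IsConj (X ^ i * Y) (X ^ (h : ℤ))) :
    Cfsg.HasNormalPComplement 2 G := by
  haveI : Fact (Nat.Prime 2) := ⟨Nat.prime_two⟩
  obtain ⟨A, hA, hA2, hA0⟩ := d.exists_index_two_avoid 0 (hf 0)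
  obtain ⟨B, hB, hB2, hB1⟩ := d.exists_index_two_avoid 1 (hf 1)
  haveI hN : (A ⊓ B).Normal := normal_inf_normal A B
  let x' : ↥(S : Subgroup G) := ⟨X, d.XS⟩
  have hcyc : (A ⊓ B).subgroupOf (S : Subgroup G) ≤ zpowers x' := by
    intro g hg
    obtain ⟨r, e | e⟩ := d.cases g g.2
    · exact ⟨r, Subtype.ext (by show ((x' ^ r : ↥(S : Subgroup G)) : G) = g; rw [coe_zpow, e])⟩
    · exfalso
      have hgA : X ^ r * Y ∈ A := e ▸ hg.1
      have hgB : X ^ r * Y ∈ B := e ▸ hg.2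
      rcases d.parity r with h1 | h1 <;> obtain ⟨u, hu⟩ := isConj_iff.1 h1
      · exact hA0 (hu ▸ hA.conj_mem _ hgA u)
      · exact hB1 (hu ▸ hB.conj_mem _ hgB u)
  obtain ⟨a, ha⟩ : ∃ a, (A ⊓ B).index = 2 ^ a := by
    have h1 : (A ⊓ B).index ≤ 2 * 2 := by
      have := index_inf_le (H := A) (K := B); rw [hA2, hB2] at this; exact this
    have h2 : 2 ∣ (A ⊓ B).index := hA2 ▸ index_dvd_of_le inf_le_left
    have h3 : (A ⊓ B).index ≠ 0 := index_ne_zero_of_finite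
    rcases (show (A ⊓ B).index = 2 ∨ (A ⊓ B).index = 4 by omega) with e | e
    · exact ⟨1, e⟩
    · exact ⟨2, e⟩
  refine Transfer.hasNPC_of_normal_index hN ⟨a, ha⟩ ?_
  by_cases hodd : 2 ∣ Nat.card ↥(A ⊓ B)
  swap
  · exact Transfer.hasNPC_of_not_dvd hodd
  obtain ⟨P⟩ : Nonempty (Sylow 2 ↥(A ⊓ B)) := inferInstance
  obtain ⟨f⟩ := sylow_normal_equiv S hN P
  have hmin : (Nat.card ↥(A ⊓ B)).minFac = 2 :=
    (Nat.minFac_le_of_dvd le_rfl hodd).antisymm (Nat.minFac_prime (by omega)).two_le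
  haveI : IsCyclic ↥((A ⊓ B).subgroupOf (S : Subgroup G)) :=
    isCyclic_of_injective (inclusion hcyc) (inclusion_injective hcyc)
  have hP : IsCyclic ↥(P : Subgroup ↥(A ⊓ B)) := isCyclic_of_injective f.toMonoidHom f.injective
  exact Transfer.hasNPC_of_burnside P (hP.normalizer_le_centralizer hmin)

end IsDih

end Cfsg.Agent.TwoModels
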